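import Cfsg.Agent.OD.Pre
import Cfsg.Agent.H6.Top2
import Cfsg.Agent.H6.G2A.C
set_option autoImplicit false
set_option maxRecDepth 100000
set_option Elab.async false
set_option linter.all false
namespace CfH6.G2A
open CfH6 MulAction
theorem e0_0 : EqsOk nets0 eqs0 512 9 0 9 :=
  eqsOk_of _ _ _ _ 0 9 _ (by decide) (by decide +kernel)
theorem ok0 : okNets 512 nets0 = true := by decide +kernel
theorem x1_0 : NxOk nets0 ws1 nets1 5 512 9 512 0 9 :=
  nxOk_of _ _ _ _ _ _ _ 0 9 _ (by decide) (by decide +kernel)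
theorem sx1 : sideNx ws1 nets1 6 512 9 512 = true := by decide +kernel
theorem x2_0 : NxOk nets1 ws2 nets2 3 512 9 40 0 9 :=
  nxOk_of _ _ _ _ _ _ _ 0 9 _ (by decide) (by decide +kernel)
theorem sx2 : sideNx ws2 nets2 5 512 9 40 = true := by decide +kernel
theorem x3_0 : NxOk nets2 ws3 nets3 3 40 6 8 0 6 :=
  nxOk_of _ _ _ _ _ _ _ 0 6 _ (by decide) (by decide +kernel)
theorem sx3 : sideNx ws3 nets3 3 40 6 8 = true := by decide +kernel
theorem x4_0 : NxOk nets3 ws4 nets4 2 8 3 8 0 3 :=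
  nxOk_of _ _ _ _ _ _ _ 0 3 _ (by decide) (by decide +kernel)
theorem sx4 : sideNx ws4 nets4 3 8 3 8 = true := by decide +kernel
theorem x5_0 : NxOk nets4 ws5 nets5 1 8 3 8 0 3 :=
  nxOk_of _ _ _ _ _ _ _ 0 3 _ (by decide) (by decide +kernel)
theorem sx5 : sideNx ws5 nets5 2 8 3 8 = true := by decide +kernel
theorem oi1_0 : (Nat.blt 0 5 && Nat.beq (orbN nets1 5 30 (Nat.shiftLeft 1 1)) S1) = true := by decide +kernel
theorem ci1 : (Nat.beq (chkInv nets1 5 S1) 0 && S1.testBit 1) = true := by decide +kernel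
theorem oi2_0 : (Nat.blt 0 5 && Nat.beq (orbN nets1 5 15 (Nat.shiftLeft 1 322)) S2) = true := by decide +kernel
theorem ci2 : (Nat.beq (chkInv nets1 5 S2) 0 && S2.testBit 322) = true := by decide +kernel
theorem cm2 : chkMx 512 nets0 6 ws1 5 416 w2 322 J2 lBig = true := by decide +kernel
theorem cm1 : chkMx 512 nets0 6 ws1 5 416 w1 1 J1 lBig = true := by decide +kernel
theorem og5 : Nat.ble 3 (popc 3 (orbN nets5 1 2 (Nat.shiftLeft 1 5))) = true := by decide +kernel
theorem og4 : Nat.ble 4 (popc 3 (orbN nets4 2 4 (Nat.shiftLeft 1 4))) = true := by decide +kernel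
theorem og3 : Nat.ble 5 (popc 3 (orbN nets3 3 9 (Nat.shiftLeft 1 3))) = true := by decide +kernel
theorem og2 : Nat.ble 32 (popc 6 (orbN nets2 3 12 (Nat.shiftLeft 1 2))) = true := by decide +kernel
theorem pw0 : (allLt 6 (wpow [4, 5, 3, 2, 1, 2, 0] (13 ^ 1)) && bs'.all fun b => Nat.blt b 512 && Nat.beq (chkMap nets0 (wpow [4, 5, 3, 2, 1, 2, 0] (13 ^ 1)) b b) 0) = true := by decide +kernel
end CfH6.G2A
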